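import Mathlib
import Cfsg.Agent.Lib.Helper99.C64.Defs

/-!
# Project C64 (S6000): package [GENS] (standard generators), assuming [BASIS]
-/

set_option autoImplicit false

namespace Cfsg.Agent.Lib.Helper25.C64

open Matrix Cfsg.Agent.Lib.Helper99.C64

universe u

section algebra

variable {F : Type u} [Field F]

theorem pow_self_mul (A : M4 F) (hA : A * A = 1) (e : ℕ) : A ^ e * A ^ e = 1 := by
  rw [← pow_add, ← two_mul, pow_mul, pow_two, hA, one_pow]

/-- One-step sign correction. -/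
theorem split1 (A B X : M4 F) (hAB : A * B = -(B * A))
    (hX : X * A = A * X ∨ X * A = -(A * X)) :
    ∃ e : ℕ, e < 2 ∧ (X * B ^ e) * A = A * (X * B ^ e) := by
  rcases hX with h | h
  · exact ⟨0, by norm_num, by simpa using h⟩
  · refine ⟨1, by norm_num, ?_⟩
    have hBA : B * A = -(A * B) := by rw [hAB, neg_neg]
    calc X * B ^ 1 * A = X * (B * A) := by rw [pow_one, mul_assoc]
      _ = -(X * A * B) := by rw [hBA, mul_neg, mul_assoc]
      _ = A * X * B := by rw [h, neg_mul, neg_neg]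
      _ = A * (X * B ^ 1) := by rw [pow_one, mul_assoc]

/-- Two-step sign correction: `Y = X * B^e2 * A^e1` commutes with `A` and `B`. -/
theorem split2 (A B X : M4 F) (hA : A * A = 1) (hB : B * B = 1) (hAB : A * B = -(B * A))
    (hXA : X * A = A * X ∨ X * A = -(A * X)) (hXB : X * B = B * X ∨ X * B = -(B * X)) :
    ∃ e1 e2 : ℕ, e1 < 2 ∧ e2 < 2 ∧
      (X * B ^ e2 * A ^ e1) * A = A * (X * B ^ e2 * A ^ e1) ∧
      (X * B ^ e2 * A ^ e1) * B = B * (X * B ^ e2 * A ^ e1) ∧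
      X = (X * B ^ e2 * A ^ e1) * A ^ e1 * B ^ e2 := by
  obtain ⟨e2, he2, h2⟩ := split1 A B X hAB hXA
  have hY1B : (X * B ^ e2) * B = B * (X * B ^ e2) ∨ (X * B ^ e2) * B = -(B * (X * B ^ e2)) := by
    have hpow : B ^ e2 * B = B * B ^ e2 := pow_mul_comm' B e2
    rcases hXB with h | h
    · left
      rw [mul_assoc, hpow, ← mul_assoc, h, mul_assoc]
    · right
      rw [mul_assoc, hpow, ← mul_assoc, h, neg_mul, mul_assoc]
  have hBA : B * A = -(A * B) := by rw [hAB, neg_neg]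
  obtain ⟨e1, he1, h1⟩ := split1 B A (X * B ^ e2) hBA hY1B
  refine ⟨e1, e2, he1, he2, ?_, h1, ?_⟩
  · have hpow : A ^ e1 * A = A * A ^ e1 := pow_mul_comm' A e1
    rw [mul_assoc, hpow, ← mul_assoc, h2, mul_assoc]
  · rw [mul_assoc (X * B ^ e2), pow_self_mul A hA, mul_one, mul_assoc, pow_self_mul B hB,
      mul_one]

theorem eq_zero_of_neg_eq (h2 : (2 : F) ≠ 0) (x : F) (h : -x = x ∨ x = -x) : x = 0 := by
  have h' : 2 * x = 0 := by
    rcases h with h | h
    · linear_combination -h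
    · linear_combination h
  rcases mul_eq_zero.mp h' with h3 | h3
  · exact absurd h3 h2
  · exact h3

/-- The commutant of the standard matrices consists of the scalars. -/
theorem std_commutant (h2 : (2 : F) ≠ 0) (M : M4 F) (hZa : M * mZa F = mZa F * M)
    (hXa : M * mXa F = mXa F * M) (hZb : M * mZb F = mZb F * M)
    (hXb : M * mXb F = mXb F * M) : ∃ c : F, M = c • (1 : M4 F) := by
  have za := fun i j => congrFun (congrFun hZa i) j
  have zb := fun i j => congrFun (congrFun hZb i) j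
  have xa := fun i j => congrFun (congrFun hXa i) j
  have xb := fun i j => congrFun (congrFun hXb i) j
  have h01 : M 0 1 = 0 := by
    have h := zb 0 1
    simp [mZb, Matrix.mul_apply, Fin.sum_univ_four] at h
    first | exact eq_zero_of_neg_eq h2 _ (Or.inl h) | exact eq_zero_of_neg_eq h2 _ (Or.inr h)
  have h02 : M 0 2 = 0 := by
    have h := za 0 2
    simp [mZa, Matrix.mul_apply, Fin.sum_univ_four] at h
    first | exact eq_zero_of_neg_eq h2 _ (Or.inl h) | exact eq_zero_of_neg_eq h2 _ (Or.inr h)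
  have h03 : M 0 3 = 0 := by
    have h := za 0 3
    simp [mZa, Matrix.mul_apply, Fin.sum_univ_four] at h
    first | exact eq_zero_of_neg_eq h2 _ (Or.inl h) | exact eq_zero_of_neg_eq h2 _ (Or.inr h)
  have h10 : M 1 0 = 0 := by
    have h := zb 1 0
    simp [mZb, Matrix.mul_apply, Fin.sum_univ_four] at h
    first | exact eq_zero_of_neg_eq h2 _ (Or.inl h) | exact eq_zero_of_neg_eq h2 _ (Or.inr h)
  have h12 : M 1 2 = 0 := by
    have h := za 1 2
    simp [mZa, Matrix.mul_apply, Fin.sum_univ_four] at h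
    first | exact eq_zero_of_neg_eq h2 _ (Or.inl h) | exact eq_zero_of_neg_eq h2 _ (Or.inr h)
  have h13 : M 1 3 = 0 := by
    have h := za 1 3
    simp [mZa, Matrix.mul_apply, Fin.sum_univ_four] at h
    first | exact eq_zero_of_neg_eq h2 _ (Or.inl h) | exact eq_zero_of_neg_eq h2 _ (Or.inr h)
  have h20 : M 2 0 = 0 := by
    have h := za 2 0
    simp [mZa, Matrix.mul_apply, Fin.sum_univ_four] at h
    first | exact eq_zero_of_neg_eq h2 _ (Or.inl h) | exact eq_zero_of_neg_eq h2 _ (Or.inr h)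
  have h21 : M 2 1 = 0 := by
    have h := za 2 1
    simp [mZa, Matrix.mul_apply, Fin.sum_univ_four] at h
    first | exact eq_zero_of_neg_eq h2 _ (Or.inl h) | exact eq_zero_of_neg_eq h2 _ (Or.inr h)
  have h23 : M 2 3 = 0 := by
    have h := zb 2 3
    simp [mZb, Matrix.mul_apply, Fin.sum_univ_four] at h
    first | exact eq_zero_of_neg_eq h2 _ (Or.inl h) | exact eq_zero_of_neg_eq h2 _ (Or.inr h)
  have h30 : M 3 0 = 0 := by
    have h := za 3 0
    simp [mZa, Matrix.mul_apply, Fin.sum_univ_four] at h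
    first | exact eq_zero_of_neg_eq h2 _ (Or.inl h) | exact eq_zero_of_neg_eq h2 _ (Or.inr h)
  have h31 : M 3 1 = 0 := by
    have h := za 3 1
    simp [mZa, Matrix.mul_apply, Fin.sum_univ_four] at h
    first | exact eq_zero_of_neg_eq h2 _ (Or.inl h) | exact eq_zero_of_neg_eq h2 _ (Or.inr h)
  have h32 : M 3 2 = 0 := by
    have h := zb 3 2
    simp [mZb, Matrix.mul_apply, Fin.sum_univ_four] at h
    first | exact eq_zero_of_neg_eq h2 _ (Or.inl h) | exact eq_zero_of_neg_eq h2 _ (Or.inr h)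
  have d02 : M 0 0 = M 2 2 := by
    have h := xa 0 2
    simpa [mXa, Matrix.mul_apply, Fin.sum_univ_four] using h
  have d13 : M 1 1 = M 3 3 := by
    have h := xa 1 3
    simpa [mXa, Matrix.mul_apply, Fin.sum_univ_four] using h
  have d01 : M 0 0 = M 1 1 := by
    have h := xb 0 1
    simpa [mXb, Matrix.mul_apply, Fin.sum_univ_four] using h
  refine ⟨M 0 0, ?_⟩
  ext i j
  fin_cases i <;> fin_cases j <;>
    simp [h01, h02, h03, h10, h12, h13, h20, h21, h23, h30, h31, h32, ← d02, ← d13, ← d01]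

theorem conj_comm (h : GL (Fin 4) F) (Y A : M4 F) (hYA : Y * A = A * Y) :
    (((h⁻¹ : GL (Fin 4) F) : M4 F) * Y * (h : M4 F)) *
        (((h⁻¹ : GL (Fin 4) F) : M4 F) * A * (h : M4 F)) =
      (((h⁻¹ : GL (Fin 4) F) : M4 F) * A * (h : M4 F)) *
        (((h⁻¹ : GL (Fin 4) F) : M4 F) * Y * (h : M4 F)) := by
  have e1 : (((h⁻¹ : GL (Fin 4) F) : M4 F) * Y * (h : M4 F)) *
        (((h⁻¹ : GL (Fin 4) F) : M4 F) * A * (h : M4 F)) =
      ((h⁻¹ : GL (Fin 4) F) : M4 F) * (Y * A) * (h : M4 F) := by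
    simp only [mul_assoc, Units.mul_inv_cancel_left]
  have e2 : (((h⁻¹ : GL (Fin 4) F) : M4 F) * A * (h : M4 F)) *
        (((h⁻¹ : GL (Fin 4) F) : M4 F) * Y * (h : M4 F)) =
      ((h⁻¹ : GL (Fin 4) F) : M4 F) * (A * Y) * (h : M4 F) := by
    simp only [mul_assoc, Units.mul_inv_cancel_left]
  rw [e1, e2, hYA]

/-- A matrix commuting with matrices satisfying the standard relations is scalar. -/
theorem scalar_of_comm_std (hBasis : PkgBasis.{u}) (h2 : (2 : F) ≠ 0) (A1 B1 A2 B2 Y : M4 F)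
    (hrel : IsStdRel A1 B1 A2 B2) (h1 : Y * A1 = A1 * Y) (h1' : Y * B1 = B1 * Y)
    (h3 : Y * A2 = A2 * Y) (h4 : Y * B2 = B2 * Y) : ∃ c : F, Y = c • (1 : M4 F) := by
  obtain ⟨h, e1, e2, e3, e4⟩ := hBasis F h2 A1 B1 A2 B2 hrel
  obtain ⟨c, hc⟩ := std_commutant h2 (((h⁻¹ : GL (Fin 4) F) : M4 F) * Y * (h : M4 F))
    (by rw [← e1]; exact conj_comm h Y A1 h1) (by rw [← e2]; exact conj_comm h Y B1 h1')
    (by rw [← e3]; exact conj_comm h Y A2 h3) (by rw [← e4]; exact conj_comm h Y B2 h4)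
  refine ⟨c, ?_⟩
  have hY : Y = (h : M4 F) * (((h⁻¹ : GL (Fin 4) F) : M4 F) * Y * (h : M4 F)) *
      ((h⁻¹ : GL (Fin 4) F) : M4 F) := by
    simp only [mul_assoc, Units.mul_inv_cancel_left, Units.mul_inv, mul_one]
  rw [hY, hc, Matrix.mul_smul, Matrix.smul_mul, mul_one, Units.mul_inv]

end algebra


/-- [GENS], assuming [BASIS]. -/
theorem pkgGens_of (hBasis : PkgBasis.{u}) : PkgGens.{u} := by
  intro F _ _ p _ _ hcard hp4 R hR hR64 hSq hComm
  classical
  have h2 : (2 : F) ≠ 0 := by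
    intro h
    have h' : ((2 : ℕ) : F) = 0 := by exact_mod_cast h
    rw [CharP.cast_eq_zero_iff F p 2] at h'
    have hp2 : p ≤ 2 := Nat.le_of_dvd (by norm_num) h'
    have hp := (Fact.out : p.Prime).two_le
    have : p = 2 := le_antisymm hp2 hp
    omega
  -- the centre has order 4
  have hZ4 : Nat.card (Subgroup.center R) = 4 := by
    obtain ⟨p', e, _, _, h | h | h⟩ := hR.field
    · exact absurd h.1 (by decide)
    · exact h.2.2.1
    · have := h.2.2.1
      simp at this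
  -- central elements are scalar
  have hcent : ∀ z : ↥R, z ∈ Subgroup.center ↥R →
      ∃ c : F, ((z : GL (Fin 4) F) : M4 F) = c • (1 : M4 F) := by
    intro z hz
    apply hR.absIrred.2
    rintro s ⟨g, hg, rfl⟩
    have h0 := (Subgroup.mem_center_iff.mp hz) ⟨g, hg⟩
    have h1 : g * (z : GL (Fin 4) F) = (z : GL (Fin 4) F) * g := congrArg Subtype.val h0
    have h3 := congrArg (fun x : GL (Fin 4) F => (x : M4 F)) h1
    simp only [Units.val_mul] at h3
    exact h3.symm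
  -- a scalar of `R` has square `±1`
  have hsc : ∀ g ∈ R, ∀ c : F, (g : M4 F) = c • (1 : M4 F) → c * c = 1 ∨ c * c = -1 := by
    intro g hg c hc
    rcases hSq g hg with h | h
    · left
      rw [hc] at h
      have := congrFun (congrFun h 0) 0
      simpa using this
    · right
      rw [hc] at h
      have := congrFun (congrFun h 0) 0
      simpa using this
  -- the scalar `ι`
  obtain ⟨z, hzR, ι, hzι, hι⟩ :
      ∃ z ∈ R, ∃ ι : F, (z : M4 F) = ι • (1 : M4 F) ∧ ι ^ 2 = -1 := by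
    by_contra hno
    push Not at hno
    have hpm : ∀ z : ↥(Subgroup.center ↥R), (((z : ↥R) : GL (Fin 4) F) : M4 F) = 1 ∨
        (((z : ↥R) : GL (Fin 4) F) : M4 F) = -1 := by
      intro z
      obtain ⟨c, hc⟩ := hcent z.1 z.2
      rcases hsc _ z.1.2 c hc with h | h
      · have h3 : (c - 1) * (c + 1) = 0 := by linear_combination h
        rcases mul_eq_zero.mp h3 with h1 | h1
        · left
          rw [hc, sub_eq_zero.mp h1, one_smul]
        · right
          rw [hc, eq_neg_of_add_eq_zero_left h1, neg_smul, one_smul]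
      · exact absurd (by rw [sq]; exact h) (hno _ z.1.2 c hc)
    have hinj : Function.Injective (fun z : ↥(Subgroup.center ↥R) =>
        decide ((((z : ↥R) : GL (Fin 4) F) : M4 F) = 1)) := by
      intro z w hzw
      have hzw' : ((((z : ↥R) : GL (Fin 4) F) : M4 F) = 1) ↔
          ((((w : ↥R) : GL (Fin 4) F) : M4 F) = 1) := by
        simpa using hzw
      apply Subtype.ext
      apply Subtype.ext
      apply Units.ext
      rcases hpm z with h | h
      · rw [h, hzw'.mp h]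
      · rcases hpm w with h' | h'
        · rw [hzw'.mpr h', h']
        · rw [h, h']
    have hle := Nat.card_le_card_of_injective _ hinj
    rw [hZ4] at hle
    simp at hle
  have hzval : ∀ g : GL (Fin 4) F, ((z * g : GL (Fin 4) F) : M4 F) = ι • (g : M4 F) := by
    intro g
    rw [Units.val_mul, hzι, smul_mul_assoc, one_mul]
  -- normalisation of squares
  have hnorm : ∀ g ∈ R, ∃ g' ∈ R, ∃ s : F, (g' : M4 F) = s • (g : M4 F) ∧
      (g' : M4 F) * (g' : M4 F) = 1 := by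
    intro g hg
    rcases hSq g hg with h | h
    · exact ⟨g, hg, 1, by rw [one_smul], h⟩
    · refine ⟨z * g, R.mul_mem hzR hg, ι, hzval g, ?_⟩
      rw [hzval, smul_mul_smul_comm, h, ← sq, hι]
      simp
  have hanti : ∀ g ∈ R, ∀ k ∈ R, g * k ≠ k * g →
      (g : M4 F) * (k : M4 F) = -((k : M4 F) * (g : M4 F)) := by
    intro g hg k hk hne
    rcases hComm g hg k hk with h | h
    · exfalso
      apply hne
      apply Units.ext
      rw [Units.val_mul, Units.val_mul]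
      exact h
    · exact h
  -- a non-commuting pair
  obtain ⟨x, y, hxy⟩ : ∃ x y : ↥R, y * x ≠ x * y := by
    by_contra hno
    push Not at hno
    have htop : Subgroup.center ↥R = ⊤ := by
      rw [eq_top_iff]
      intro x _
      rw [Subgroup.mem_center_iff]
      intro g
      exact hno x g
    have h3 : Nat.card (Subgroup.center ↥R) = Nat.card ↥R := by
      rw [htop]
      exact Subgroup.card_top
    rw [hZ4, hR64] at h3
    norm_num at h3
  have hXY : ((x : GL (Fin 4) F) : M4 F) * ((y : GL (Fin 4) F) : M4 F) =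
      -(((y : GL (Fin 4) F) : M4 F) * ((x : GL (Fin 4) F) : M4 F)) :=
    hanti x.1 x.2 y.1 y.2 (fun h => hxy (Subtype.ext h).symm)
  obtain ⟨a1, ha1R, s1, ha1s, ha1sq⟩ := hnorm x.1 x.2
  obtain ⟨b1, hb1R, t1, hb1t, hb1sq⟩ := hnorm y.1 y.2
  have hab1 : (a1 : M4 F) * (b1 : M4 F) = -((b1 : M4 F) * (a1 : M4 F)) := by
    rw [ha1s, hb1t, smul_mul_smul_comm, smul_mul_smul_comm, hXY, smul_neg, mul_comm t1 s1]
  -- splitting off the first pair
  have hsplit1 : ∀ g ∈ R, ∃ e1 e2 : ℕ, e1 < 2 ∧ e2 < 2 ∧ ∃ y1 ∈ R,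
      (y1 : M4 F) * (a1 : M4 F) = (a1 : M4 F) * (y1 : M4 F) ∧
      (y1 : M4 F) * (b1 : M4 F) = (b1 : M4 F) * (y1 : M4 F) ∧
      (g : M4 F) = (y1 : M4 F) * (a1 : M4 F) ^ e1 * (b1 : M4 F) ^ e2 := by
    intro g hg
    obtain ⟨e1, e2, he1, he2, h1, h1', h3⟩ := split2 (a1 : M4 F) (b1 : M4 F) (g : M4 F) ha1sq
      hb1sq hab1 (hComm g hg a1 ha1R) (hComm g hg b1 hb1R)
    refine ⟨e1, e2, he1, he2, g * b1 ^ e2 * a1 ^ e1,
      R.mul_mem (R.mul_mem hg (R.pow_mem hb1R e2)) (R.pow_mem ha1R e1), ?_, ?_, ?_⟩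
    · simpa only [Units.val_mul, Units.val_pow_eq_pow_val] using h1
    · simpa only [Units.val_mul, Units.val_pow_eq_pow_val] using h1'
    · simpa only [Units.val_mul, Units.val_pow_eq_pow_val] using h3
  -- a non-commuting pair in the centralizer of the first pair
  obtain ⟨x2, hx2R, hx2a, hx2b, y2, hy2R, hy2a, hy2b, hxy2⟩ : ∃ x2 ∈ R,
      (x2 : M4 F) * (a1 : M4 F) = (a1 : M4 F) * (x2 : M4 F) ∧
      (x2 : M4 F) * (b1 : M4 F) = (b1 : M4 F) * (x2 : M4 F) ∧ ∃ y2 ∈ R,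
      (y2 : M4 F) * (a1 : M4 F) = (a1 : M4 F) * (y2 : M4 F) ∧
      (y2 : M4 F) * (b1 : M4 F) = (b1 : M4 F) * (y2 : M4 F) ∧ x2 * y2 ≠ y2 * x2 := by
    by_contra hno
    push Not at hno
    -- then the centralizer of the first pair is central
    have hcen : ∀ u ∈ R, (u : M4 F) * (a1 : M4 F) = (a1 : M4 F) * (u : M4 F) →
        (u : M4 F) * (b1 : M4 F) = (b1 : M4 F) * (u : M4 F) → ∀ g ∈ R, g * u = u * g := by
      intro u hu hua hub g hg
      obtain ⟨e1, e2, -, -, y1, hy1R, hy1a, hy1b, hgy⟩ := hsplit1 g hg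
      have h3 : u * y1 = y1 * u := hno u hu hua hub y1 hy1R hy1a hy1b
      have h4 : (u : M4 F) * (y1 : M4 F) = (y1 : M4 F) * (u : M4 F) := by
        have := congrArg (fun x : GL (Fin 4) F => (x : M4 F)) h3
        simpa only [Units.val_mul] using this
      have c1 : Commute (u : M4 F) ((a1 : M4 F) ^ e1) := Commute.pow_right hua e1
      have c2 : Commute (u : M4 F) ((b1 : M4 F) ^ e2) := Commute.pow_right hub e2
      have c3 : Commute (u : M4 F) (y1 : M4 F) := h4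
      have c4 : Commute (u : M4 F) ((y1 : M4 F) * (a1 : M4 F) ^ e1 * (b1 : M4 F) ^ e2) :=
        (c3.mul_right c1).mul_right c2
      apply Units.ext
      rw [Units.val_mul, Units.val_mul, hgy]
      exact c4.eq.symm
    have hsurj : Function.Surjective (fun q : ↥(Subgroup.center ↥R) × (Fin 2 × Fin 2) =>
        ((q.1 : ↥R) * (⟨a1, ha1R⟩ : ↥R) ^ (q.2.1 : ℕ) * (⟨b1, hb1R⟩ : ↥R) ^ (q.2.2 : ℕ) : ↥R)) := by
      intro g
      obtain ⟨e1, e2, he1, he2, y1, hy1R, hy1a, hy1b, hgy⟩ := hsplit1 g.1 g.2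
      have hy1c : (⟨y1, hy1R⟩ : ↥R) ∈ Subgroup.center ↥R := by
        rw [Subgroup.mem_center_iff]
        intro k
        apply Subtype.ext
        exact hcen y1 hy1R hy1a hy1b k.1 k.2
      refine ⟨(⟨⟨y1, hy1R⟩, hy1c⟩, (⟨e1, he1⟩, ⟨e2, he2⟩)), ?_⟩
      apply Subtype.ext
      apply Units.ext
      show ((y1 * a1 ^ e1 * b1 ^ e2 : GL (Fin 4) F) : M4 F) = _
      rw [Units.val_mul, Units.val_mul, Units.val_pow_eq_pow_val, Units.val_pow_eq_pow_val]
      exact hgy.symm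
    have hle := Nat.card_le_card_of_surjective _ hsurj
    rw [hR64, Nat.card_prod, hZ4] at hle
    simp at hle
  have hXY2 : (x2 : M4 F) * (y2 : M4 F) = -((y2 : M4 F) * (x2 : M4 F)) :=
    hanti x2 hx2R y2 hy2R hxy2
  obtain ⟨a2, ha2R, s2, ha2s, ha2sq⟩ := hnorm x2 hx2R
  obtain ⟨b2, hb2R, t2, hb2t, hb2sq⟩ := hnorm y2 hy2R
  have hab2 : (a2 : M4 F) * (b2 : M4 F) = -((b2 : M4 F) * (a2 : M4 F)) := by
    rw [ha2s, hb2t, smul_mul_smul_comm, smul_mul_smul_comm, hXY2, smul_neg, mul_comm t2 s2]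
  have ha2a1 : (a2 : M4 F) * (a1 : M4 F) = (a1 : M4 F) * (a2 : M4 F) := by
    rw [ha2s, smul_mul_assoc, mul_smul_comm, hx2a]
  have ha2b1 : (a2 : M4 F) * (b1 : M4 F) = (b1 : M4 F) * (a2 : M4 F) := by
    rw [ha2s, smul_mul_assoc, mul_smul_comm, hx2b]
  have hb2a1 : (b2 : M4 F) * (a1 : M4 F) = (a1 : M4 F) * (b2 : M4 F) := by
    rw [hb2t, smul_mul_assoc, mul_smul_comm, hy2a]
  have hb2b1 : (b2 : M4 F) * (b1 : M4 F) = (b1 : M4 F) * (b2 : M4 F) := by
    rw [hb2t, smul_mul_assoc, mul_smul_comm, hy2b]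
  have hrel : IsStdRel (a1 : M4 F) (b1 : M4 F) (a2 : M4 F) (b2 : M4 F) :=
    ⟨ha1sq, hb1sq, ha2sq, hb2sq, hab1, hab2, ha2a1.symm, hb2a1.symm, ha2b1.symm, hb2b1.symm⟩
  refine ⟨ι, hι, a1, b1, a2, b2, ha1R, hb1R, ha2R, hb2R, ⟨z, hzR, hzι⟩, hrel, ?_⟩
  intro g hg
  obtain ⟨e1, e2, -, -, y1, hy1R, hy1a, hy1b, hgy⟩ := hsplit1 g hg
  obtain ⟨e3, e4, -, -, h3a, h3b, h3⟩ := split2 (a2 : M4 F) (b2 : M4 F) (y1 : M4 F) ha2sq
    hb2sq hab2 (hComm y1 hy1R a2 ha2R) (hComm y1 hy1R b2 hb2R)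
  obtain ⟨Y2, hY2⟩ : ∃ Y2 : M4 F, Y2 = (y1 : M4 F) * (b2 : M4 F) ^ e4 * (a2 : M4 F) ^ e3 :=
    ⟨_, rfl⟩
  rw [← hY2] at h3a h3b h3
  have hY2R : ∃ y2' ∈ R, (y2' : M4 F) = Y2 :=
    ⟨y1 * b2 ^ e4 * a2 ^ e3, R.mul_mem (R.mul_mem hy1R (R.pow_mem hb2R e4)) (R.pow_mem ha2R e3),
      by rw [hY2, Units.val_mul, Units.val_mul, Units.val_pow_eq_pow_val,
        Units.val_pow_eq_pow_val]⟩
  have c1 : Commute Y2 (a1 : M4 F) := by
    rw [hY2]
    exact ((show Commute (y1 : M4 F) (a1 : M4 F) from hy1a).mul_left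
      (Commute.pow_left (show Commute (b2 : M4 F) (a1 : M4 F) from hb2a1) e4)).mul_left
      (Commute.pow_left (show Commute (a2 : M4 F) (a1 : M4 F) from ha2a1) e3)
  have c2 : Commute Y2 (b1 : M4 F) := by
    rw [hY2]
    exact ((show Commute (y1 : M4 F) (b1 : M4 F) from hy1b).mul_left
      (Commute.pow_left (show Commute (b2 : M4 F) (b1 : M4 F) from hb2b1) e4)).mul_left
      (Commute.pow_left (show Commute (a2 : M4 F) (b1 : M4 F) from ha2b1) e3)
  obtain ⟨c, hc⟩ := scalar_of_comm_std hBasis h2 (a1 : M4 F) (b1 : M4 F) (a2 : M4 F) (b2 : M4 F)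
    Y2 hrel c1.eq c2.eq h3a h3b
  obtain ⟨y2', hy2'R, hy2'⟩ := hY2R
  have hc4 : c ^ 4 = 1 := by
    rcases hsc y2' hy2'R c (hy2'.trans hc) with h | h
    · calc c ^ 4 = (c * c) ^ 2 := by ring
        _ = 1 := by rw [h, one_pow]
    · calc c ^ 4 = (c * c) ^ 2 := by ring
        _ = 1 := by rw [h]; norm_num
  refine ⟨c, e1, e2, e3, e4, hc4, ?_⟩
  have c5 : Commute ((a2 : M4 F) ^ e3 * (b2 : M4 F) ^ e4) ((a1 : M4 F) ^ e1 * (b1 : M4 F) ^ e2) := by
    have ca : Commute ((a2 : M4 F) ^ e3) ((a1 : M4 F) ^ e1) :=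
      Commute.pow_pow (show Commute (a2 : M4 F) (a1 : M4 F) from ha2a1) e3 e1
    have cb : Commute ((a2 : M4 F) ^ e3) ((b1 : M4 F) ^ e2) :=
      Commute.pow_pow (show Commute (a2 : M4 F) (b1 : M4 F) from ha2b1) e3 e2
    have cc : Commute ((b2 : M4 F) ^ e4) ((a1 : M4 F) ^ e1) :=
      Commute.pow_pow (show Commute (b2 : M4 F) (a1 : M4 F) from hb2a1) e4 e1
    have cd : Commute ((b2 : M4 F) ^ e4) ((b1 : M4 F) ^ e2) :=
      Commute.pow_pow (show Commute (b2 : M4 F) (b1 : M4 F) from hb2b1) e4 e2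
    exact (ca.mul_right cb).mul_left (cc.mul_right cd)
  calc (g : M4 F) = (y1 : M4 F) * (a1 : M4 F) ^ e1 * (b1 : M4 F) ^ e2 := hgy
    _ = Y2 * (a2 : M4 F) ^ e3 * (b2 : M4 F) ^ e4 * (a1 : M4 F) ^ e1 * (b1 : M4 F) ^ e2 := by
        rw [← h3]
    _ = c • (((a2 : M4 F) ^ e3 * (b2 : M4 F) ^ e4) * ((a1 : M4 F) ^ e1 * (b1 : M4 F) ^ e2)) := by
        rw [hc]
        simp only [smul_mul_assoc, one_mul, mul_assoc]
    _ = c • ((a1 : M4 F) ^ e1 * (b1 : M4 F) ^ e2 * (a2 : M4 F) ^ e3 * (b2 : M4 F) ^ e4) := by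
        rw [c5.eq, mul_assoc ((a1 : M4 F) ^ e1 * (b1 : M4 F) ^ e2)]

end Cfsg.Agent.Lib.Helper25.C64
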