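import Cfsg.Agent.Lib.Helper25.C64.Gens
import Cfsg.Agent.Lib.Helper67.C64.Basis

/-!
# Project C64 (S6000): package [GENS], unconditional
-/

set_option autoImplicit false

namespace Cfsg.Agent.Lib.Helper25.C64

open Cfsg.Agent.Lib.Helper99.C64

universe u

/-- [GENS] -/
theorem pkgGens : PkgGens.{u} := pkgGens_of Cfsg.Agent.Lib.Helper67.C64.pkgBasis

end Cfsg.Agent.Lib.Helper25.C64
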